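import Cfsg.Agent.Fisch.Rc.Th
import Cfsg.Agent.Fisch.F22.J2

set_option autoImplicit false
set_option maxRecDepth 1000000

namespace CF.Fisch.F22.RN

open Cfsg CF.Comp CF.Fisch CF.Fisch.F22 Subgroup

variable {G : Type*} [Group G] {D : Set G} {E : Dom (Cj G) 3510} {f : ℕ → G} (M : M22 D E f)
include M

theorem uq (H : Subgroup G) : UQ H (2 ^ 10) := by
  have := M.finite
  have h := uq_of (m := 64561751654400 / 2 ^ 17) (J2.thom M).2 M.card (by decide) H
  rwa [(J2.thom M).1, (J2.a_cens M).card0] at h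

theorem bs : Bs D (sv E vB) (2 ^ 10) 22 :=
  have := M.finite
  ⟨M.sv_sub _, M.mb.commB, J2.gen M ▸ (J2.a_cens M).card0,
    (M.ncard_sv (by decide +kernel)).trans (by decide +kernel), fun x hx h =>
    sv_mono E (u := cws N Q (full 3510) J2.ps) (by decide +kernel) (M.mem_cws _ _ |>.2 ⟨M.all ▸ hx, fun w hw =>
      h _ (beq_iff.1 J2.pws1 ▸ (M.sv_pws _).ge ⟨w, hw, rfl⟩)⟩)⟩

end CF.Fisch.F22.RN
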